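import Mathlib
import Cfsg.Agent.Classical.Unitary.Group
import Cfsg.Agent.Classical.Unitary.Order

/-!
A unitary element of large prime order has distinct eigenvalues, so commutes with no nilpotent.
-/

set_option autoImplicit false
set_option linter.unusedSectionVars false

open scoped Classical

noncomputable section

namespace CfsgLib.UnitaryCommutingOrderP

open Matrix Polynomial

variable {F : Type*} [Field F] [Fintype F] {m q : ℕ}

/-- The order of `-q` modulo a prime not dividing `|SU_l(q)|` exceeds `l`. -/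
theorem dvd_card_SU_of_pow_eq_one (hF : Fintype.card F = q ^ 2) {l r j : ℕ} (hr : r.Prime)
    (hl : 2 ≤ l) (hj : 1 ≤ j) (hjl : j ≤ l) (h : ((-(q : ℤ)) ^ j : ZMod r) = 1) :
    r ∣ Nat.card ↥(Cfsg.SU l F q) := by
  have hq := CfsgLib.Unitary.two_le_q hF
  have hS := CfsgLib.Unitary.card_SU hF l (by omega)
  set f : ℕ → ℕ := fun i => if Even i then q ^ (i + 1) + 1 else q ^ (i + 1) - 1 with hf
  have hsub : q ^ 2 - 1 ∣ Nat.card ↥(Cfsg.SU l F q) := by
    have hd : (q + 1) * (q ^ 2 - 1) ∣ ∏ i ∈ Finset.range l, f i := by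
      have h01 : ({0, 1} : Finset ℕ) ⊆ Finset.range l := by
        intro x hx
        simp only [Finset.mem_insert, Finset.mem_singleton] at hx
        rw [Finset.mem_range]; omega
      refine dvd_trans ?_ (Finset.prod_dvd_prod_of_subset _ _ f h01)
      rw [Finset.prod_pair (by norm_num)]
      simp [hf]
    have := hd.mul_left (q ^ (l * (l - 1) / 2))
    rw [← hS] at this
    exact Nat.dvd_of_mul_dvd_mul_left (show 0 < q + 1 by omega)
      this
  by_cases hq1 : r ∣ q + 1
  · refine (hq1.trans ?_).trans hsub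
    rw [show q ^ 2 - 1 = (q + 1) * (q - 1) by rw [← Nat.sq_sub_sq, one_pow]]
    exact dvd_mul_right _ _
  have hfac : r ∣ f (j - 1) := by
    rw [hf]
    simp only
    rw [Nat.sub_add_cancel hj]
    have h1 : 1 ≤ q ^ j := Nat.one_le_pow _ _ (by omega)
    split_ifs with he
    · rw [← ZMod.natCast_eq_zero_iff]
      have hodd : Odd j := by rw [show j = j - 1 + 1 by omega]; exact he.add_one
      push_cast
      rw [hodd.neg_pow] at h
      push_cast at h
      linear_combination -h
    · rw [← ZMod.natCast_eq_zero_iff, Nat.cast_sub h1]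
      have hev : Even j := by rw [show j = j - 1 + 1 by omega]; exact (Nat.not_even_iff_odd.1 he).add_one
      push_cast
      rw [hev.neg_pow] at h
      push_cast at h
      linear_combination h
  have h2 := (hfac.trans (Finset.dvd_prod_of_mem f (Finset.mem_range.2 (show j - 1 < l by omega)))).mul_left
    (q ^ (l * (l - 1) / 2))
  rw [← hS] at h2
  exact (hr.dvd_mul.1 h2).resolve_left hq1

theorem char_dvd_card_SU (hF : Fintype.card F = q ^ 2) {l p : ℕ} [CharP F p] (hp : p.Prime) (hl : 2 ≤ l) :
    p ∣ Nat.card ↥(Cfsg.SU l F q) := by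
  obtain ⟨k, -, hk⟩ := FiniteField.card F p
  have hpq : p ∣ q := hp.dvd_of_dvd_pow (n := 2) (hF ▸ hk ▸ dvd_pow_self p k.pos.ne')
  have hN : 1 ≤ l * (l - 1) / 2 := by
    rw [Nat.one_le_div_iff two_pos]
    calc 2 ≤ 2 * 1 := le_rfl
      _ ≤ l * (l - 1) := Nat.mul_le_mul hl (by omega)
  have h : p ∣ (q + 1) * Nat.card ↥(Cfsg.SU l F q) := by
    rw [CfsgLib.Unitary.card_SU hF l (by omega)]
    exact (hpq.trans (dvd_pow_self q (by omega))).mul_right _
  exact (hp.dvd_mul.1 h).resolve_left fun h1 => hp.not_dvd_one ((Nat.dvd_add_right hpq).1 h1)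

/-- Eigenvalue orbit: `Y` unitary of order dividing `r` commuting with a nilpotent `N`. -/
theorem eq_zero_of_commute (hF : Fintype.card F = q ^ 2) {r k : ℕ} [Fact r.Prime]
    (hr0 : (r : F) ≠ 0) (hm : 3 ≤ m) (he : ∀ j, 1 ≤ j → j + 2 ≤ m → ((-(q : ℤ)) ^ j : ZMod r) ≠ 1)
    (Y N : Matrix (Fin m) (Fin m) F) (hU : Y.transpose.map (fun x => x ^ q) * Y = 1) (hdet : Y.det = 1)
    (hY : Y ^ r = 1) (hN : N ^ k = 0) (hc : Commute Y N) : Y = 1 ∨ N = 0 := by
  rcases eq_or_ne Y 1 with hY1 | hY1
  · exact Or.inl hY1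
  right
  have hr : r.Prime := Fact.out
  obtain ⟨p, e0, hp, hcharF, he0, hqe⟩ := CfsgLib.Unitary.exists_char hF
  haveI := hcharF
  haveI : Fact p.Prime := ⟨hp⟩
  have hrp : r ≠ p := fun h => hr0 (h ▸ CharP.cast_eq_zero F p)
  haveI : Nonempty (Fin m) := ⟨⟨0, by omega⟩⟩
  set K := AlgebraicClosure F
  haveI : CharP K p := charP_of_injective_algebraMap (algebraMap F K).injective p
  set ι := algebraMap F K
  set M : Matrix (Fin m) (Fin m) K := Y.map ι with hM
  have hMr : M ^ r = 1 := by
    show (ι.mapMatrix Y) ^ r = 1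
    rw [← map_pow, hY, map_one]
  have hroot : ∀ z : K, z ∈ M.charpoly.roots → ∃ v, v ≠ 0 ∧ M *ᵥ v = z • v := by
    intro z hz
    rw [mem_roots (Matrix.charpoly_monic M).ne_zero, IsRoot, Matrix.eval_charpoly] at hz
    obtain ⟨v, hv, hv'⟩ := Matrix.exists_mulVec_eq_zero_iff.2 hz
    refine ⟨v, hv, ?_⟩
    rw [Matrix.sub_mulVec, sub_eq_zero, Matrix.scalar_apply] at hv'
    rw [← hv']
    funext i
    simp [Matrix.mulVec_diagonal]
  have hroot' : ∀ (z : K) (v : Fin m → K), v ≠ 0 → M *ᵥ v = z • v → z ∈ M.charpoly.roots := by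
    intro z v hv h
    rw [mem_roots (Matrix.charpoly_monic M).ne_zero, IsRoot, Matrix.eval_charpoly]
    refine Matrix.exists_mulVec_eq_zero_iff.1 ⟨v, hv, ?_⟩
    rw [Matrix.sub_mulVec, sub_eq_zero, h, Matrix.scalar_apply]
    funext i
    simp [Matrix.mulVec_diagonal]
  have hrpow : ∀ z ∈ M.charpoly.roots, z ^ r = 1 := by
    intro z hz
    obtain ⟨v, hv, h⟩ := hroot z hz
    have hp' : ∀ i : ℕ, (M ^ i) *ᵥ v = z ^ i • v := by
      intro i
      induction i with
      | zero => simp
      | succ i ih => rw [pow_succ', ← Matrix.mulVec_mulVec, ih, Matrix.mulVec_smul, h, smul_smul, pow_succ]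
    have h2 := hp' r
    rw [hMr, Matrix.one_mulVec] at h2
    obtain ⟨i, hi⟩ := Function.ne_iff.1 hv
    have := congrFun h2 i
    rw [Pi.smul_apply, smul_eq_mul] at this
    exact (mul_eq_right₀ hi).1 this.symm
  -- closed under `z ↦ z ^ (-q)`
  have hconj : ∀ z ∈ M.charpoly.roots, (z⁻¹) ^ q ∈ M.charpoly.roots := by
    intro z hz
    obtain ⟨v, hv, h⟩ := hroot z hz
    have hz0 : z ≠ 0 := fun h0 => by
      have := hrpow z hz
      rw [h0, zero_pow hr.ne_zero] at this
      exact zero_ne_one this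
    let σ : K →+* K := iterateFrobenius K p e0
    have hσ : ∀ x, σ x = x ^ q := fun x => by rw [hqe]; exact iterateFrobenius_def p e0 x
    have hσv : σ ∘ v ≠ 0 := by
      intro h0
      obtain ⟨i, hi⟩ := Function.ne_iff.1 hv
      exact hi (σ.injective (by rw [Pi.zero_apply, map_zero]; exact congrFun h0 i))
    set Mσ : Matrix (Fin m) (Fin m) K := M.map σ
    have h1 : Mσ *ᵥ (σ ∘ v) = z ^ q • (σ ∘ v) := by
      funext i
      have := congrArg σ (congrFun h i)
      rw [RingHom.map_mulVec] at this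
      rw [this, Pi.smul_apply, smul_eq_mul, map_mul, hσ z]
      rfl
    have hU' : Mσ.transpose * M = 1 := by
      have h := congrArg (fun A : Matrix (Fin m) (Fin m) F => A.map ι) hU
      simp only [Matrix.map_mul] at h
      rw [show (1 : Matrix (Fin m) (Fin m) F).map ι = 1 from map_one ι.mapMatrix] at h
      rw [← h]
      congr 1
      ext i j
      simp [Mσ, M, hσ, map_pow]
    have hev : z ^ q ∈ Mσ.charpoly.roots := by
      rw [mem_roots (Matrix.charpoly_monic Mσ).ne_zero, IsRoot, Matrix.eval_charpoly]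
      refine Matrix.exists_mulVec_eq_zero_iff.1 ⟨σ ∘ v, hσv, ?_⟩
      rw [Matrix.sub_mulVec, sub_eq_zero, h1, Matrix.scalar_apply]
      funext i
      simp [Matrix.mulVec_diagonal]
    rw [← Matrix.charpoly_transpose, mem_roots (Matrix.charpoly_monic _).ne_zero, IsRoot,
      Matrix.eval_charpoly] at hev
    obtain ⟨w, hw, hw'⟩ := Matrix.exists_mulVec_eq_zero_iff.2 hev
    rw [Matrix.sub_mulVec, sub_eq_zero, Matrix.scalar_apply] at hw'
    have hw2 : Mσ.transpose *ᵥ w = z ^ q • w := by
      rw [← hw']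
      funext i
      simp [Matrix.mulVec_diagonal]
    refine hroot' _ w hw ?_
    have hMU : M * Mσ.transpose = 1 := mul_eq_one_comm.1 hU'
    have h3 : w = z ^ q • (M *ᵥ w) := by
      rw [← Matrix.mulVec_smul, ← hw2, Matrix.mulVec_mulVec, hMU, Matrix.one_mulVec]
    rw [inv_pow, eq_inv_smul_iff₀ (pow_ne_zero q hz0)]
    exact h3.symm
  -- a root different from one
  obtain ⟨z0, hz0, hz01⟩ : ∃ z ∈ M.charpoly.roots, z ≠ 1 := by
    by_contra hall
    push Not at hall
    apply hY1
    have hsplit : M.charpoly.Splits := IsAlgClosed.splits _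
    have hcp : M.charpoly = (X - C (1 : K)) ^ m := by
      rw [hsplit.eq_prod_roots_of_monic (Matrix.charpoly_monic M),
        Multiset.map_congr rfl (g := fun _ => X - C (1 : K)) (fun x hx => by rw [hall x hx]),
        Multiset.map_const', Multiset.prod_replicate,
        ← hsplit.natDegree_eq_card_roots, Matrix.charpoly_natDegree_eq_dim, Fintype.card_fin]
    have hCH := Matrix.aeval_self_charpoly M
    rw [hcp, map_pow, map_sub, aeval_X, aeval_C, map_one] at hCH
    have hpm : M ^ (p ^ m) = 1 := by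
      have h1 : (M - 1) ^ (p ^ m) = 0 :=
        pow_eq_zero_of_le ((Nat.lt_pow_self hp.one_lt).le) hCH
      rwa [sub_pow_char_pow_of_commute p _ (Commute.one_right M), one_pow, sub_eq_zero] at h1
    have hM1 : M = 1 := by
      have hco : Nat.Coprime (p ^ m) r := Nat.Coprime.pow_left m
        ((Nat.coprime_primes hp hr).2 hrp.symm)
      have := pow_gcd_eq_one.2 ⟨hpm, hMr⟩
      rwa [hco, pow_one] at this
    exact Matrix.map_injective ι.injective (hM1.trans (map_one ι.mapMatrix).symm)
  have hord : orderOf z0 = r := orderOf_eq_prime (hrpow z0 hz0) hz01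
  have hz00 : z0 ≠ 0 := fun h0 => by
    rw [h0] at hord
    exact hr.ne_zero (by rw [← hord, orderOf_zero])
  -- the orbit
  set a : ZMod r := ((-(q : ℤ)) : ZMod r) with ha
  let g : ZMod r → K := fun i => z0 ^ i.val
  have hg_inj : Function.Injective g := fun i j h =>
    ZMod.val_injective r ((pow_injOn_Iio_orderOf (x := z0)) (by rw [Set.mem_Iio, hord]; exact i.val_lt)
      (by rw [Set.mem_Iio, hord]; exact j.val_lt) h)
  have hg_int : ∀ i : ℤ, g (i : ZMod r) = z0 ^ i := by
    intro i
    show z0 ^ (i : ZMod r).val = _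
    rw [← _root_.zpow_natCast, ZMod.val_intCast]
    conv_rhs => rw [← Int.emod_add_mul_ediv i (r : ℤ), zpow_add₀ hz00, _root_.zpow_mul, _root_.zpow_natCast, hrpow z0 hz0,
      _root_.one_zpow, mul_one]
  have hg_mem : ∀ i : ℕ, g (a ^ i) ∈ M.charpoly.roots := by
    intro i
    have hcast : a ^ i = (((-(q : ℤ)) ^ i : ℤ) : ZMod r) := by rw [ha]; push_cast; rfl
    rw [hcast, hg_int]
    induction i with
    | zero => simpa using hz0
    | succ i ih =>
      have hi : a ^ i = (((-(q : ℤ)) ^ i : ℤ) : ZMod r) := by rw [ha]; push_cast; rfl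
      have h := hconj _ (ih hi)
      rw [pow_succ, _root_.zpow_mul, _root_.zpow_neg, _root_.zpow_natCast, ← inv_pow]
      exact h
  have hane : a ≠ 0 := by
    intro h0
    have hr_q : (r : ℕ) ∣ q := by
      rw [← ZMod.natCast_eq_zero_iff]
      rw [ha] at h0
      push_cast at h0
      simpa using h0
    exact hrp ((Nat.prime_dvd_prime_iff_eq hr hp).1 (hr.dvd_of_dvd_pow (hqe ▸ hr_q)))
  have hfin : IsOfFinOrder a := by
    haveI : NeZero r := ⟨hr.ne_zero⟩
    exact isOfFinOrder_iff_pow_eq_one.2 ⟨r - 1, by have := hr.two_le; omega, ZMod.pow_card_sub_one_eq_one hane⟩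
  have he1 : m - 1 ≤ orderOf a := by
    by_contra hlt
    refine he (orderOf a) hfin.orderOf_pos (by omega) ?_
    have := pow_orderOf_eq_one a
    rw [ha] at this ⊢
    exact_mod_cast this
  set S : Finset K := (Finset.range (orderOf a)).image (fun i => g (a ^ i)) with hS
  have hScard : S.card = orderOf a := by
    rw [hS, Finset.card_image_of_injOn, Finset.card_range]
    intro i hi j hj h
    simp only [Finset.coe_range, Set.mem_Iio] at hi hj
    exact pow_injOn_Iio_orderOf hi hj (hg_inj h)
  have hSsub : S.val ≤ M.charpoly.roots := by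
    rw [Multiset.le_iff_subset S.nodup]
    intro x hx
    rw [Finset.mem_val, hS, Finset.mem_image] at hx
    obtain ⟨i, -, rfl⟩ := hx
    exact hg_mem i
  have hsplit : M.charpoly.Splits := IsAlgClosed.splits _
  have hcard : Multiset.card M.charpoly.roots = m := by
    rw [← hsplit.natDegree_eq_card_roots, Matrix.charpoly_natDegree_eq_dim, Fintype.card_fin]
  obtain ⟨T, hT⟩ := Multiset.le_iff_exists_add.1 hSsub
  have hTcard : Multiset.card T + orderOf a = m := by
    rw [← hcard, hT, Multiset.card_add, Finset.card_val, hScard, add_comm]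
  have hnodup : M.charpoly.roots.Nodup := by
    rcases Nat.eq_zero_or_pos (Multiset.card T) with h0 | hpos
    · rw [hT, Multiset.card_eq_zero.1 h0, add_zero]
      exact S.nodup
    obtain ⟨μ, hμ⟩ := Multiset.card_eq_one.1 (show Multiset.card T = 1 by omega)
    have ha1 : a ≠ 1 := by
      intro h1
      rw [h1, orderOf_one] at he1
      omega
    have hgeom : ∑ i ∈ Finset.range (orderOf a), a ^ i = 0 := by
      have h := geom_sum_mul a (orderOf a)
      rw [pow_orderOf_eq_one, sub_self] at h
      exact (mul_eq_zero.1 h).resolve_right (sub_ne_zero.2 ha1)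
    have hprod : S.val.prod = 1 := by
      rw [Finset.prod_val]
      show ∏ x ∈ S, x = 1
      rw [hS, Finset.prod_image]
      · show ∏ i ∈ Finset.range (orderOf a), z0 ^ (a ^ i).val = 1
        rw [Finset.prod_pow_eq_pow_sum]
        apply orderOf_dvd_iff_pow_eq_one.1
        rw [hord, ← ZMod.natCast_eq_zero_iff, Nat.cast_sum]
        simp only [ZMod.natCast_val, ZMod.cast_id', id_eq]
        exact hgeom
      · intro i hi j hj h
        simp only [Finset.coe_range, Set.mem_Iio] at hi hj
        exact pow_injOn_Iio_orderOf hi hj (hg_inj h)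
    have hdet' : M.det = 1 := by
      show (ι.mapMatrix Y).det = 1
      rw [← RingHom.map_det, hdet, map_one]
    rw [Matrix.det_eq_prod_roots_charpoly, hT, Multiset.prod_add, hprod, one_mul, hμ,
      Multiset.prod_singleton] at hdet'
    rw [hT, hμ, hdet', Multiset.nodup_add]
    refine ⟨S.nodup, Multiset.nodup_singleton _, ?_⟩
    rw [Multiset.disjoint_singleton, Finset.mem_val, hS, Finset.mem_image]
    rintro ⟨i, -, hi⟩
    apply pow_ne_zero i hane
    apply hg_inj
    rw [hi]
    show (1 : K) = z0 ^ (0 : ZMod r).val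
    rw [ZMod.val_zero, pow_zero]
  -- a basis of eigenvectors
  set R := M.charpoly.roots.toFinset with hR
  have hRcard : Fintype.card R = m := by
    rw [Fintype.card_coe, hR, Multiset.toFinset_card_of_nodup hnodup, hcard]
  have hex : ∀ z : R, ∃ v, v ≠ 0 ∧ M *ᵥ v = (z : K) • v := fun z =>
    hroot z (Multiset.mem_toFinset.1 z.2)
  choose v hv hMv using hex
  have hli : LinearIndependent K v := by
    refine Module.End.eigenvectors_linearIndependent' (Matrix.toLin' M) (fun z : R => (z : K))
      Subtype.val_injective v fun z => ⟨?_, hv z⟩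
    rw [Module.End.mem_eigenspace_iff, Matrix.toLin'_apply]
    exact hMv z
  have hspan : Submodule.span K (Set.range v) = ⊤ :=
    hli.span_eq_top_of_card_eq_finrank' (by rw [hRcard, Module.finrank_fin_fun])
  set N' := N.map ι with hN'
  have hcomm : M * N' = N' * M := by
    have h := congrArg ι.mapMatrix hc.eq
    rw [map_mul, map_mul] at h
    exact h
  have hN'k : N' ^ k = 0 := by
    show (ι.mapMatrix N) ^ k = 0
    rw [← map_pow, hN, map_zero]
  have hNv : ∀ z : R, N' *ᵥ v z = 0 := by
    intro z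
    have hw : M *ᵥ (N' *ᵥ v z) = (z : K) • (N' *ᵥ v z) := by
      rw [Matrix.mulVec_mulVec, hcomm, ← Matrix.mulVec_mulVec, hMv, Matrix.mulVec_smul]
    obtain ⟨c, hc'⟩ := Submodule.mem_span_range_iff_exists_fun K |>.1 (hspan ▸ (Submodule.mem_top :
      N' *ᵥ v z ∈ (⊤ : Submodule K (Fin m → K))))
    have hzero : ∑ x : R, (c x * ((x : K) - z)) • v x = 0 := by
      rw [← hc', Matrix.mulVec_sum, Finset.smul_sum, ← sub_eq_zero, ← Finset.sum_sub_distrib] at hw
      rw [← hw]
      refine Finset.sum_congr rfl fun x _ => ?_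
      rw [Matrix.mulVec_smul, hMv, smul_smul, smul_smul, ← sub_smul]
      congr 1
      ring
    have hcx : ∀ x : R, x ≠ z → c x = 0 := fun x hx =>
      (mul_eq_zero.1 (Fintype.linearIndependent_iff.1 hli _ hzero x)).resolve_right
        (sub_ne_zero.2 fun h => hx (Subtype.ext h))
    rw [Finset.sum_eq_single z (fun x _ hx => by rw [hcx x hx, zero_smul]) (by simp)] at hc'
    have hpow : ∀ i : ℕ, (N' ^ i) *ᵥ v z = (c z) ^ i • v z := by
      intro i
      induction i with
      | zero => simp
      | succ i ih =>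
        rw [pow_succ', ← Matrix.mulVec_mulVec, ih, Matrix.mulVec_smul, ← hc', smul_smul, pow_succ]
    have h0 := hpow k
    rw [hN'k, Matrix.zero_mulVec] at h0
    have hk0 : c z ^ k = 0 := (smul_eq_zero.1 h0.symm).resolve_right (hv z)
    rw [← hc', (pow_eq_zero_iff'.1 hk0).1, zero_smul]
  have hN0 : N' = 0 := by
    have hle : Submodule.span K (Set.range v) ≤ LinearMap.ker (Matrix.toLin' N') :=
      Submodule.span_le.2 (by rintro _ ⟨z, rfl⟩; exact hNv z)
    rw [hspan, top_le_iff, LinearMap.ker_eq_top] at hle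
    exact Matrix.toLin'.map_eq_zero_iff.1 hle
  exact Matrix.map_injective ι.injective (hN0.trans (map_zero ι.mapMatrix).symm)

end CfsgLib.UnitaryCommutingOrderP
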